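import Cfsg.Agent.H512.LinFour.FrameE
import Cfsg.Agent.H512.LinFour.FrameE7Data
import Cfsg.Agent.H336.LinFour.Equiv
import Cfsg.Agent.S1035
import Cfsg.Agent.Nodes.KindE
import Cfsg.Agent.S1064

/-!
# The frame of seven orthogonal roots of `E₇` and the row `E₇(q)`, `q` odd, of S1918
-/

set_option autoImplicit false

namespace Cfsg.Agent.H512.LinFour.FrameE7

open Subgroup Cfsg.Agent.H336.LinFour Cfsg.Agent.H512.LinFour.FrameA
open Cfsg.Lie Cfsg.Agent.ChevalleyStructure Cfsg.Agent.ChevalleyStructure.Elts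
  Cfsg.Agent.ChevalleyStructure.NPerm Cfsg.Agent.ChevalleyStructure.CoxeterGeomTypes Cfsg.Agent.Nodes.RGDChev
  Cfsg.Agent.KFacts.RgdChevCoord Cfsg.Agent.OddHalf.NI.ModelChev
open Cfsg.Agent.FixBN.FieldRGD (uu vv dd ww)
open Cfsg.Agent.Nodes.KindE (isType7)
open scoped MatrixGroups

universe u

theorem hD7 : InList chevE7 := isType7.inList

variable {K : Type u} [Field K]

/-- the group generated by two opposite root subgroups -/
def RR (K : Type u) [Field K] (r : ℕ) : Subgroup (GL chevE7.Idx K) :=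
  chevE7.rootSubgroup K r ⊔ chevE7.rootSubgroup K (chevE7.neg r)

theorem exists_phi {r : ℕ} (hr : r < chevE7.nroots) : ∃ φ : SL(2, K) →* ↥(chevE7.group K),
    (∀ a, ((φ (uu a) : ↥(chevE7.group K)) : GL chevE7.Idx K) = xG hD7 r a) ∧
    (∀ a, ((φ (vv a) : ↥(chevE7.group K)) : GL chevE7.Idx K) = xG hD7 (chevE7.neg r) a) ∧
    (∀ c hc, ((φ (dd c hc) : ↥(chevE7.group K)) : GL chevE7.Idx K) = hG hD7 r c) ∧
    φ.range.map (chevE7.group K).subtype = RR K r := by
  obtain ⟨φ, h1, h2, h3, h4, h5⟩ := exists_sl isType7 (K := K) hr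
  refine ⟨φ, fun a => ?_, fun a => ?_, h4, ?_⟩
  · rw [h1, coe_xc isType7 hr]
  · rw [h2, coe_xc_neg isType7 hr]
  · rw [h5, Subgroup.map_sup]
    have e1 : (XX chevE7 7 K (vec chevE7 7 r)).map (chevE7.group K).subtype = chevE7.rootSubgroup K r := by
      rw [← XV_vec isType7 K hr]
      exact (subgroupOf_map_subtype _ _).trans (inf_eq_left.2 (XV_le_group isType7 _))
    have e2 : (XX chevE7 7 K (-(vec chevE7 7 r))).map (chevE7.group K).subtype =
        chevE7.rootSubgroup K (chevE7.neg r) := by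
      rw [← vec_neg isType7 hr, ← XV_vec isType7 K (neg_lt isType7.inList hr)]
      exact (subgroupOf_map_subtype _ _).trans (inf_eq_left.2 (XV_le_group isType7 _))
    rw [e1, e2]
    rfl

theorem fr_lt : ∀ i : Fin 7, fr i < chevE7.nroots := by decide +kernel

/-- the frame -/
noncomputable def phi (K : Type u) [Field K] (i : Fin 7) : SL(2, K) →* ↥(chevE7.group K) :=
  (exists_phi (K := K) (fr_lt i)).choose

theorem phi_uu (i : Fin 7) (a : K) : ((phi K i (uu a) : ↥(chevE7.group K)) : GL chevE7.Idx K) = xG hD7 (fr i) a :=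
  (exists_phi (K := K) (fr_lt i)).choose_spec.1 a

theorem phi_vv (i : Fin 7) (a : K) :
    ((phi K i (vv a) : ↥(chevE7.group K)) : GL chevE7.Idx K) = xG hD7 (chevE7.neg (fr i)) a :=
  (exists_phi (K := K) (fr_lt i)).choose_spec.2.1 a

theorem phi_dd (i : Fin 7) (c : K) (hc : c ≠ 0) :
    ((phi K i (dd c hc) : ↥(chevE7.group K)) : GL chevE7.Idx K) = hG hD7 (fr i) c :=
  (exists_phi (K := K) (fr_lt i)).choose_spec.2.2.1 c hc

theorem phi_range (i : Fin 7) : (phi K i).range.map (chevE7.group K).subtype = RR K (fr i) :=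
  (exists_phi (K := K) (fr_lt i)).choose_spec.2.2.2

/-! ### words -/

/-- the product of a word -/
noncomputable def nW (K : Type u) [Field K] (w : List ℕ) : GL chevE7.Idx K :=
  (w.map fun i => nG hD7 (chevE7.simple i) (1 : K)).prod

theorem nW_mem (w : List ℕ) : nW K w ∈ chevE7.group K := by
  refine Subgroup.list_prod_mem _ ?_
  intro x hx
  obtain ⟨i, -, rfl⟩ := List.mem_map.1 hx
  exact nG_mem_group hD7 _ _

theorem conj_nW {w : List ℕ} (hw : ∀ i ∈ w, i < 7) {s : ℕ} (hs : s < chevE7.nroots) :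
    act w s < chevE7.nroots ∧ ConjRoot chevE7 K (nW K w) s (act w s) := by
  induction w with
  | nil => exact ⟨hs, conjRoot_one s⟩
  | cons i w ih =>
    obtain ⟨h1, h2⟩ := ih (fun j hj => hw j (List.mem_cons_of_mem _ hj))
    have hi : i < chevE7.rank := hw i List.mem_cons_self
    exact ⟨reflectRoot_lt hD7 hi h1, h2.mul (conjRoot_nG hD7 hi h1)⟩

theorem neg_lt7 {s : ℕ} (hs : s < chevE7.nroots) : chevE7.neg s < chevE7.nroots := NPerm.neg_lt hD7 hs

/-- conjugation of the rank one groups -/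
theorem map_RR {n : GL chevE7.Idx K} {r s : ℕ} (h : (ConjRoot chevE7 K n r s ∧
      ConjRoot chevE7 K n (chevE7.neg r) (chevE7.neg s)) ∨
      (ConjRoot chevE7 K n r (chevE7.neg s) ∧ ConjRoot chevE7 K n (chevE7.neg r) s)) :
    (RR K r).map (MulAut.conj n).toMonoidHom = RR K s := by
  unfold RR
  rw [Subgroup.map_sup]
  rcases h with ⟨h1, h2⟩ | ⟨h1, h2⟩
  · rw [h1, h2]
  · rw [h1, h2, sup_comm]

theorem isPerm_of {w : List ℕ} {σ : Equiv.Perm (Fin 7)} (hw : ∀ i ∈ w, i < 7) (h : chk w σ = true) :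
    ∃ g, IsPerm (phi K) g σ := by
  refine ⟨⟨nW K w, nW_mem w⟩, fun i => ?_⟩
  apply Subgroup.map_injective (chevE7.group K).subtype_injective
  rw [phi_range, Subgroup.map_map]
  have e : ((chevE7.group K).subtype.comp (MulAut.conj (⟨nW K w, nW_mem w⟩ : ↥(chevE7.group K))).toMonoidHom) =
      (MulAut.conj (nW K w)).toMonoidHom.comp (chevE7.group K).subtype := by
    ext x; rfl
  rw [e, ← Subgroup.map_map, phi_range]
  apply map_RR
  have h1 := of_decide_eq_true h i
  have h2 := (conj_nW (K := K) hw (fr_lt i)).2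
  have h3 := (conj_nW (K := K) hw (neg_lt7 (fr_lt i))).2
  rcases h1 with ⟨h4, h5⟩ | ⟨h4, h5⟩
  · left
    rw [h4] at h2
    rw [h5] at h3
    exact ⟨h2, h3⟩
  · right
    rw [h4] at h2
    rw [h5] at h3
    exact ⟨h2, h3⟩

/-! ### the frame -/

set_option backward.isDefEq.respectTransparency false in
theorem car7 : ∀ i : Fin 7, ∃ j : Fin 7, cartanOf chevE7 7 i j = -1 := by decide +kernel

theorem card_range (i : Fin 7) [Finite K] : Nat.card (phi K i).range = Nat.card SL(2, K) := by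
  obtain ⟨p, hp⟩ := CharP.exists K
  have := Fintype.ofFinite K
  have hpr : Fact p.Prime := ⟨CharP.char_is_prime K p⟩
  obtain ⟨j, hj⟩ := car7 (pj i)
  have h1 := sl_injective isType7 (K := K) p hj
  have h2 : (sl isType7 (K := K) (pj i)).range.map (chevE7.group K).subtype = RR K (chevE7.simple (pj i)) := by
    have hs := simple_lt isType7.inList (lt_rank isType7 (pj i))
    rw [range_sl, ← vec_simple isType7 (pj i), Subgroup.map_sup]
    have e1 : (XX chevE7 7 K (vec chevE7 7 (chevE7.simple (pj i)))).map (chevE7.group K).subtype =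
        chevE7.rootSubgroup K (chevE7.simple (pj i)) := by
      rw [← XV_vec isType7 K hs]
      exact (subgroupOf_map_subtype _ _).trans (inf_eq_left.2 (XV_le_group isType7 _))
    have e2 : (XX chevE7 7 K (-(vec chevE7 7 (chevE7.simple (pj i))))).map (chevE7.group K).subtype =
        chevE7.rootSubgroup K (chevE7.neg (chevE7.simple (pj i))) := by
      rw [← vec_neg isType7 hs, ← XV_vec isType7 K (neg_lt isType7.inList hs)]
      exact (subgroupOf_map_subtype _ _).trans (inf_eq_left.2 (XV_le_group isType7 _))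
    rw [e1, e2]
    rfl
  have hs := simple_lt isType7.inList (lt_rank isType7 (pj i))
  have h3 := (conj_nW (K := K) (ltp i) hs).2
  have h4 := (conj_nW (K := K) (ltp i) (neg_lt7 hs)).2
  rw [(chkp i).1] at h3
  rw [(chkp i).2] at h4
  have h5 := map_RR (Or.inl ⟨h3, h4⟩)
  rw [Nat.card_congr ((phi K i).range.equivMapOfInjective _ (chevE7.group K).subtype_injective).toEquiv, phi_range,
    ← h5, ← Nat.card_congr ((RR K (chevE7.simple (pj i))).equivMapOfInjective _ (MulAut.conj _).injective).toEquiv,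
    ← h2, ← Nat.card_congr ((sl isType7 (K := K) (pj i)).range.equivMapOfInjective _
      (chevE7.group K).subtype_injective).toEquiv]
  exact (Nat.card_congr (MonoidHom.ofInjective h1).toEquiv).symm

theorem phi_injective (i : Fin 7) [Finite K] : Function.Injective (phi K i) := by
  have h1 := Cfsg.Agent.H318.Four.Homo.card_ker_range (phi K i)
  rw [card_range i] at h1
  have hfin : Finite SL(2, K) := inferInstance
  have hpos : 0 < Nat.card SL(2, K) := Nat.card_pos
  have h2 : Nat.card (phi K i).ker = 1 := by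
    have : Nat.card (phi K i).ker * Nat.card SL(2, K) = 1 * Nat.card SL(2, K) := by rw [← h1, one_mul]
    exact Nat.eq_of_mul_eq_mul_right hpos this
  rw [Subgroup.card_eq_one] at h2
  exact (MonoidHom.ker_eq_bot_iff _).1 h2

theorem chkc : ∀ i j : Fin 7, i ≠ j → (fr j ≠ fr i ∧ fr j ≠ chevE7.neg (fr i) ∧ chevE7.commTerms (fr i) (fr j) = []) ∧
    (fr j ≠ chevE7.neg (fr i) ∧ fr j ≠ chevE7.neg (chevE7.neg (fr i)) ∧
      chevE7.commTerms (chevE7.neg (fr i)) (fr j) = []) ∧
    (chevE7.neg (fr j) ≠ chevE7.neg (fr i) ∧ chevE7.neg (fr j) ≠ chevE7.neg (chevE7.neg (fr i)) ∧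
      chevE7.commTerms (chevE7.neg (fr i)) (chevE7.neg (fr j)) = []) := by decide +kernel

theorem comm_of {r s : ℕ} (hr : r < chevE7.nroots) (hs : s < chevE7.nroots)
    (h : s ≠ r ∧ s ≠ chevE7.neg r ∧ chevE7.commTerms r s = []) (t u : K) :
    xG hD7 r t * xG hD7 s u = xG hD7 s u * xG hD7 r t := by
  have h1 := comm_xG isType7 (K := K) hr hs h.1 h.2.1 t u
  have h2 : chevE7.commWord K r s t u = [] := by
    rw [ChevalleyDatum.commWord, h.2.2]; rfl
  rw [h2, wordG_nil, commutatorElement_def, inv_inv, inv_inv] at h1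
  have h3 : (xG hD7 s u)⁻¹ * (xG hD7 r t)⁻¹ * xG hD7 s u * xG hD7 r t =
      (xG hD7 r t * xG hD7 s u)⁻¹ * (xG hD7 s u * xG hD7 r t) := by group
  have h4 := h3.symm.trans h1
  rw [inv_mul_eq_one] at h4
  exact h4

theorem phi_comm {i j : Fin 7} (hij : i ≠ j) (x y : SL(2, K)) : phi K i x * phi K j y = phi K j y * phi K i x := by
  obtain ⟨c1, c2, c3⟩ := chkc i j hij
  obtain ⟨c4, c5, c6⟩ := chkc j i hij.symm
  have hi := fr_lt i
  have hj := fr_lt j
  have uu_uu : ∀ a b, phi K i (uu a) * phi K j (uu b) = phi K j (uu b) * phi K i (uu a) := fun a b => by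
    apply Subtype.ext
    rw [Subgroup.coe_mul, Subgroup.coe_mul, phi_uu, phi_uu]
    exact comm_of hi hj c1 a b
  have vv_uu : ∀ a b, phi K i (vv a) * phi K j (uu b) = phi K j (uu b) * phi K i (vv a) := fun a b => by
    apply Subtype.ext
    rw [Subgroup.coe_mul, Subgroup.coe_mul, phi_vv, phi_uu]
    exact comm_of (neg_lt7 hi) hj c2 a b
  have uu_vv : ∀ a b, phi K i (uu a) * phi K j (vv b) = phi K j (vv b) * phi K i (uu a) := fun a b => by
    apply Subtype.ext
    rw [Subgroup.coe_mul, Subgroup.coe_mul, phi_vv, phi_uu]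
    exact (comm_of (neg_lt7 hj) hi c5 b a).symm
  have vv_vv : ∀ a b, phi K i (vv a) * phi K j (vv b) = phi K j (vv b) * phi K i (vv a) := fun a b => by
    apply Subtype.ext
    rw [Subgroup.coe_mul, Subgroup.coe_mul, phi_vv, phi_vv]
    exact comm_of (neg_lt7 hi) (neg_lt7 hj) c3 a b
  -- from the unipotents to everything
  have key : ∀ z : ↥(chevE7.group K), (∀ a, phi K i (uu a) * z = z * phi K i (uu a)) →
      (∀ a, phi K i (vv a) * z = z * phi K i (vv a)) → ∀ x, phi K i x * z = z * phi K i x := by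
    intro z h1 h2 x
    have h3 : (centralizer {z}).comap (phi K i) = ⊤ :=
      Cfsg.Agent.OddHalf.NI.Mult.mem_of_up_lo (fun a => mem_centralizer_singleton_iff.2 (h1 a))
        (fun a => mem_centralizer_singleton_iff.2 (h2 a))
    have h4 : x ∈ (centralizer {z}).comap (phi K i) := by rw [h3]; trivial
    exact mem_centralizer_singleton_iff.1 h4
  have key' : ∀ z : ↥(chevE7.group K), (∀ a, phi K j (uu a) * z = z * phi K j (uu a)) →
      (∀ a, phi K j (vv a) * z = z * phi K j (vv a)) → ∀ x, phi K j x * z = z * phi K j x := by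
    intro z h1 h2 x
    have h3 : (centralizer {z}).comap (phi K j) = ⊤ :=
      Cfsg.Agent.OddHalf.NI.Mult.mem_of_up_lo (fun a => mem_centralizer_singleton_iff.2 (h1 a))
        (fun a => mem_centralizer_singleton_iff.2 (h2 a))
    have h4 : x ∈ (centralizer {z}).comap (phi K j) := by rw [h3]; trivial
    exact mem_centralizer_singleton_iff.1 h4
  refine (key' (phi K i x) (fun b => ?_) (fun b => ?_) y).symm
  · exact (key (phi K j (uu b)) (fun a => uu_uu a b) (fun a => vv_uu a b) x).symm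
  · exact (key (phi K j (vv b)) (fun a => uu_vv a b) (fun a => vv_vv a b) x).symm

/-- the torus -/
def TT7 (K : Type u) [Field K] : Subgroup ↥(chevE7.group K) := (chevE7.diagonalSubgroup K).subgroupOf (chevE7.group K)

theorem conj_torus {t : ↥(chevE7.group K)} (ht : t ∈ TT7 K) {r : ℕ} (hr : r < chevE7.nroots) (a : K) :
    ∃ b, (t : GL chevE7.Idx K) * xG hD7 r a * (t : GL chevE7.Idx K)⁻¹ = xG hD7 r b := by
  have h1 := conjRoot_diagonal hD7 (F := K) (mem_subgroupOf.1 ht) hr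
  have h2 : (MulAut.conj (t : GL chevE7.Idx K)).toMonoidHom (xG hD7 r a) ∈ chevE7.rootSubgroup K r := by
    rw [← h1]
    exact ⟨_, xG_mem_rootSubgroup hD7 r a, rfl⟩
  exact (mem_rootSubgroup_iff hD7 r _).1 h2

theorem frame (K : Type u) [Field K] [Finite K] (ho : Odd (Nat.card K)) : Fr 2 (TT7 K) (phi K) where
  inj i := phi_injective i
  comm i j hij := phi_comm hij
  cardT := by
    have := Fintype.ofFinite K
    have h1 := Cfsg.Agent.S1035.result (F := K) rfl (chevE7, Nat.gcd 2 (Fintype.card K - 1)) (by simp)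
    have h2 : Nat.gcd 2 (Fintype.card K - 1) = 2 := by
      rw [Nat.card_eq_fintype_card, Nat.odd_iff] at ho
      exact Nat.gcd_eq_left (by omega)
    rw [h2] at h1
    have hle : chevE7.diagonalSubgroup K ≤ chevE7.group K := diagonal_le_group hD7 K
    rw [Nat.card_eq_fintype_card (α := K), mul_comm]
    refine Eq.trans ?_ h1
    exact congrArg (2 * ·) (Nat.card_congr (Subgroup.subgroupOfEquivOfLe hle).toEquiv)
  dd i c hc := by
    refine mem_subgroupOf.2 ?_
    rw [phi_dd]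
    exact hG_mem_diagonal hD7 (fr_lt i) hc
  up t ht i a := by
    obtain ⟨b, hb⟩ := conj_torus ht (fr_lt i) a
    refine ⟨b, Subtype.ext ?_⟩
    rw [phi_uu, ← hb, Subgroup.coe_mul, Subgroup.coe_mul, phi_uu]
    rfl
  lo t ht i a := by
    obtain ⟨b, hb⟩ := conj_torus ht (neg_lt7 (fr_lt i)) a
    refine ⟨b, Subtype.ext ?_⟩
    rw [phi_vv, ← hb, Subgroup.coe_mul, Subgroup.coe_mul, phi_vv]
    rfl

/-- the 2-part of the order of `E₇(q)` -/
theorem order_eq {q : ℕ} (hq : Odd q) : ∃ o, Odd o ∧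
    q ^ 63 * (q ^ 2 - 1) * (q ^ 6 - 1) * (q ^ 8 - 1) * (q ^ 10 - 1) * (q ^ 12 - 1) * (q ^ 14 - 1) * (q ^ 18 - 1) =
      8 * (q ^ 2 - 1) ^ 7 * o := by
  have hpos : 0 < q ^ 2 := pow_pos hq.pos 2
  have key : ∀ m, q ^ (2 * m) - 1 = (q ^ 2 - 1) * ∑ i ∈ Finset.range m, (q ^ 2) ^ i := by
    intro m
    have h1 := Commute.geom_sum₂_mul_add (Commute.one_right (q ^ 2 - 1)) m
    have h2 : q ^ 2 - 1 + 1 = q ^ 2 := by omega
    rw [h2] at h1
    rw [pow_mul, ← h1]
    simp only [one_pow, mul_one, Nat.add_sub_cancel]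
    ring
  have hx : ((q ^ 2 : ℕ) : ZMod 8) = 1 := by
    obtain ⟨k, rfl⟩ := hq
    push_cast
    have : ∀ k : ZMod 8, (2 * k + 1) ^ 2 = 1 := by decide
    exact this k
  have hS : ∀ m, (∑ i ∈ Finset.range m, (q ^ 2) ^ i) % 8 = m % 8 := by
    intro m
    rw [← ZMod.natCast_eq_natCast_iff', Nat.cast_sum]
    simp only [Nat.cast_pow]
    have hx' : ((q : ZMod 8) ^ 2) = 1 := by rw [← hx, Nat.cast_pow]
    simp [hx']
  set S : ℕ → ℕ := fun m => ∑ i ∈ Finset.range m, (q ^ 2) ^ i with hSdef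
  have k1 := key 3
  have k2 := key 4
  have k3 := key 5
  have k4 := key 6
  have k5 := key 7
  have k6 := key 9
  have s1 := hS 3
  have s2 := hS 4
  have s3 := hS 5
  have s4 := hS 6
  have s5 := hS 7
  have s6 := hS 9
  change q ^ 6 - 1 = (q ^ 2 - 1) * S 3 at k1
  change q ^ 8 - 1 = (q ^ 2 - 1) * S 4 at k2
  change q ^ 10 - 1 = (q ^ 2 - 1) * S 5 at k3
  change q ^ 12 - 1 = (q ^ 2 - 1) * S 6 at k4
  change q ^ 14 - 1 = (q ^ 2 - 1) * S 7 at k5
  change q ^ 18 - 1 = (q ^ 2 - 1) * S 9 at k6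
  change S 3 % 8 = 3 % 8 at s1
  change S 4 % 8 = 4 % 8 at s2
  change S 5 % 8 = 5 % 8 at s3
  change S 6 % 8 = 6 % 8 at s4
  change S 7 % 8 = 7 % 8 at s5
  change S 9 % 8 = 9 % 8 at s6
  obtain ⟨a1, ha1⟩ : ∃ a, S 3 = 2 * a + 1 := ⟨S 3 / 2, by omega⟩
  obtain ⟨a2, ha2⟩ : ∃ a, S 4 = 4 * (2 * a + 1) := ⟨S 4 / 8, by omega⟩
  obtain ⟨a3, ha3⟩ : ∃ a, S 5 = 2 * a + 1 := ⟨S 5 / 2, by omega⟩
  obtain ⟨a4, ha4⟩ : ∃ a, S 6 = 2 * (2 * a + 1) := ⟨S 6 / 4, by omega⟩
  obtain ⟨a5, ha5⟩ : ∃ a, S 7 = 2 * a + 1 := ⟨S 7 / 2, by omega⟩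
  obtain ⟨a6, ha6⟩ : ∃ a, S 9 = 2 * a + 1 := ⟨S 9 / 2, by omega⟩
  refine ⟨q ^ 63 * ((2 * a1 + 1) * (2 * a2 + 1) * (2 * a3 + 1) * (2 * a4 + 1) * (2 * a5 + 1) * (2 * a6 + 1)), ?_, ?_⟩
  · have ho : ∀ a : ℕ, Odd (2 * a + 1) := fun a => ⟨a, rfl⟩
    exact hq.pow.mul ((((((ho a1).mul (ho a2)).mul (ho a3)).mul (ho a4)).mul (ho a5)).mul (ho a6))
  · rw [k1, k2, k3, k4, k5, k6, ha1, ha2, ha3, ha4, ha5, ha6]
    ring

theorem conj_hG {i : ℕ} (hi : i < chevE7.rank) {s : ℕ} (hs : s < chevE7.nroots) {c : K} (hc : c ≠ 0) (t : K) :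
    hG hD7 (chevE7.simple i) c * xG hD7 s t * (hG hD7 (chevE7.simple i) c)⁻¹ =
      xG hD7 s (c ^ (chevE7.cartan i s) * t) := by
  have h := Cfsg.Agent.S1032.result (F := K) chevE7 hD7 i s hi hs c hc
  rw [mul_inv_eq_iff_eq_mul]
  apply Units.ext
  rw [Units.val_mul, Units.val_mul, coe_hG, coe_xG, coe_xG]
  exact h t

theorem dd_neg_one : dd (-1 : K) (neg_ne_zero.2 one_ne_zero) = -1 := by
  rw [entries, neg_one_00, neg_one_01, neg_one_10, neg_one_11]
  refine ⟨rfl, rfl, rfl, ?_⟩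
  change (-1 : K)⁻¹ = -1
  rw [inv_neg, inv_one]

/-- the first two signs are independent in the product -/
theorem indep [Finite K] (h2 : (2 : K) ≠ 0) (ho : Odd (Nat.card K)) (x : Fin 7 → SL(2, K))
    (hx : (frame K ho).M x = 1) (hj : ∀ j, j ∉ ({0, 1} : Finset (Fin 7)) → x j = 1) :
    ∀ j ∈ ({0, 1} : Finset (Fin 7)), x j = 1 := by
  have hf := frame K ho
  have e0 : x = Pi.mulSingle 0 (x 0) * Pi.mulSingle 1 (x 1) := by
    funext k
    by_cases h0 : k = 0
    · subst h0; simp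
    · by_cases h1 : k = 1
      · subst h1; simp
      · rw [Pi.mul_apply, Pi.mulSingle_eq_of_ne h0, Pi.mulSingle_eq_of_ne h1, hj k (by simp [h0, h1]), one_mul]
  have e1 : phi K 0 (x 0) * phi K 1 (x 1) = 1 := by
    rw [← (frame K ho).M_single 0, ← (frame K ho).M_single 1, ← map_mul, ← e0, hx]
  have h0 := (frame K ho).ker_le hx 0
  have h1 := (frame K ho).ker_le hx 1
  rcases h0 with h0 | h0
  · rw [h0, map_one, one_mul] at e1
    have h3 : x 1 = 1 := phi_injective 1 (by rw [e1, map_one])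
    intro j hj'
    rw [Finset.mem_insert, Finset.mem_singleton] at hj'
    rcases hj' with rfl | rfl
    · exact h0
    · exact h3
  · rcases h1 with h1 | h1
    · rw [h1, map_one, mul_one, h0] at e1
      exact absurd (phi_injective 0 (by rw [e1, map_one])) (neg_one_ne h2)
    · exfalso
      rw [h0, h1, ← dd_neg_one] at e1
      have e2 := congrArg (Subtype.val : ↥(chevE7.group K) → GL chevE7.Idx K) e1
      rw [Subgroup.coe_mul, Subgroup.coe_one, phi_dd, phi_dd, fr0, fr1] at e2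
      have hn : (-1 : K) ≠ 0 := neg_ne_zero.2 one_ne_zero
      have hs : chevE7.simple 0 < chevE7.nroots := simple_lt isType7.inList (by decide)
      have e3 := conj_hG (K := K) (i := 1) (by decide) hs hn 1
      have e4 := conj_hG (K := K) (i := 2) (by decide) hs hn 1
      rw [car10, zpow_zero, one_mul] at e3
      rw [car20, zpow_neg_one, inv_neg, inv_one, mul_one] at e4
      have e5 : hG hD7 (chevE7.simple 1) (-1 : K) * hG hD7 (chevE7.simple 2) (-1) * xG hD7 (chevE7.simple 0) 1 *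
          (hG hD7 (chevE7.simple 1) (-1 : K) * hG hD7 (chevE7.simple 2) (-1))⁻¹ = xG hD7 (chevE7.simple 0) (-1) := by
        have e6 : hG hD7 (chevE7.simple 1) (-1 : K) * xG hD7 (chevE7.simple 0) (-1) *
            (hG hD7 (chevE7.simple 1) (-1 : K))⁻¹ = xG hD7 (chevE7.simple 0) (-1) := by
          have := conj_hG (K := K) (i := 1) (by decide) hs hn (-1)
          rwa [car10, zpow_zero, one_mul] at this
        calc _ = hG hD7 (chevE7.simple 1) (-1 : K) * (hG hD7 (chevE7.simple 2) (-1) * xG hD7 (chevE7.simple 0) 1 *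
              (hG hD7 (chevE7.simple 2) (-1 : K))⁻¹) * (hG hD7 (chevE7.simple 1) (-1 : K))⁻¹ := by group
          _ = _ := by rw [e4, e6]
      rw [e2, one_mul, inv_one, mul_one] at e5
      have e7 := xG_injective hD7 hs e5
      apply h2
      linear_combination e7

/-- **row `E₇(q)`, `q` odd** -/
theorem row_E7 {G : Type*} [Group G] {th : V → G} {O K0 : Subgroup G} (h : Sit th O K0) {F : Type u} [Field F]
    [Fintype F] (ho : Odd (Fintype.card F)) (e : G ≃* chevE7.group F) : False := by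
  have h' := h.equiv e
  have hfin : Finite ↥(chevE7.group F) := inferInstance
  have h2 : (2 : F) ≠ 0 := by
    intro h20
    have h3 := FiniteField.even_card_of_char_two (F := F) (by
      rw [ringChar.eq_iff]
      exact CharTwo.of_one_ne_zero_of_two_eq_zero one_ne_zero h20)
    rw [Nat.odd_iff] at ho
    omega
  have ho1 := ho
  rw [← Nat.card_eq_fintype_card] at ho
  obtain ⟨o, ho', hcard⟩ := order_eq ho
  have hf := frame F ho
  have hi : ∀ {w : List ℕ} {σ : Equiv.Perm (Fin 7)}, (∀ i ∈ w, i < 7) → chk w σ = true → σ ∈ hf.pi.range := by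
    intro w σ hw hc
    obtain ⟨g, hg⟩ := isPerm_of (K := F) hw hc
    exact hf.mem_range hg
  refine hf.false_of h' h2 (hf.odd_index ho' (c := 8) (by norm_num) ?_ ?_) ?_
  · rw [← hcard, mul_comm, ← Cfsg.Agent.S1064.result (F := F) Nat.card_eq_fintype_card.symm]
    congr 1
    rw [Nat.odd_iff] at ho
    exact (Nat.gcd_eq_left (by omega)).symm
  · exact dvd8 (hi (ltw _ (by simp)) chkA) (hi (ltw _ (by simp)) chkB)
  · have h3 := hf.card_ker_le {0, 1} (indep h2 ho)
    rw [Finset.card_pair (by decide)] at h3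
    calc _ ≤ 2 ^ (7 - 2) * 2 ^ 8 := Nat.mul_le_mul_right _ h3
      _ < _ := by norm_num

end Cfsg.Agent.H512.LinFour.FrameE7
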