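import Cfsg.Agent.H512.LinFour.Alt
import Cfsg.Agent.H336.LinFour.Main
import Cfsg.Agent.H336.LinFour.Equiv
import Cfsg.Agent.StandardComponent.AltAut
import Cfsg.Agent.S0813
import Cfsg.Agent.S0265
import Cfsg.Agent.KFacts.M24Two.Out
import Cfsg.Prelude.Def_Spor_Mathieu

/-!
# The end of S1918

`K` is a simple normal subgroup of `G` with trivial centraliser; `K ≅ A_n`, `GL_5(2)` or `M24`. The normal case.
-/

set_option autoImplicit false

namespace Cfsg.Agent.H512.LinFour

open Cfsg.Agent.H336.LinFour Equiv.Perm Subgroup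

section Conj

variable {G : Type*} [Group G] (K : Subgroup G) [K.Normal]

theorem conjNormal_injective (hC : centralizer (K : Set G) = ⊥) :
    Function.Injective (MulAut.conjNormal : G →* MulAut K) := by
  rw [injective_iff_map_eq_one]
  intro g hg
  have h1 : g ∈ centralizer (K : Set G) := by
    rw [mem_centralizer_iff]
    intro k hk
    have h2 := congrArg (fun α : MulAut K => ((α ⟨k, hk⟩ : K) : G)) hg
    simp only [MulAut.conjNormal_apply, MulAut.one_apply] at h2
    rw [mul_inv_eq_iff_eq_mul] at h2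
    exact h2.symm
  rwa [hC, mem_bot] at h1

theorem conjNormal_mem (k : K) : (MulAut.conjNormal (k : G) : MulAut K) = MulAut.conj k := by
  apply MulEquiv.ext
  intro x
  apply Subtype.ext
  rw [MulAut.conjNormal_apply, MulAut.conj_apply]
  rfl

/-- a subgroup of index at most 2 -/
theorem eq_bot_or_of_card [Finite G] {L : Type*} [Group L] (eK : K ≃* L) (hC : centralizer (K : Set G) = ⊥)
    (hc : Nat.card (MulAut L) = 2 * Nat.card L) : Nonempty (G ≃* L) ∨ Nonempty (G ≃* MulAut L) := by
  have hinj := conjNormal_injective K hC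
  have : Finite L := Finite.of_equiv _ eK.toEquiv
  have e1 : MulAut K ≃* MulAut L := MulAut.congr eK
  have hfin : Finite (MulAut L) := inferInstance
  have hcL : 0 < Nat.card L := Nat.card_pos
  have h1 : Nat.card G ∣ 2 * Nat.card K := by
    rw [← Nat.card_congr eK.toEquiv, ] at hc
    rw [← hc, ← Nat.card_congr e1.toEquiv]
    exact card_dvd_of_injective _ hinj
  have h2 := K.card_mul_index
  rw [← h2, mul_comm 2] at h1
  have h3 : K.index ∣ 2 := Nat.dvd_of_mul_dvd_mul_left Nat.card_pos h1
  rcases (Nat.dvd_prime Nat.prime_two).1 h3 with h4 | h4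
  · left
    rw [index_eq_one] at h4
    subst h4
    exact ⟨topEquiv.symm.trans eK⟩
  · right
    have h5 : Nat.card G = Nat.card (MulAut K) := by
      rw [← h2, h4, Nat.card_congr e1.toEquiv, hc, Nat.card_congr eK.toEquiv, mul_comm]
    have : Finite (MulAut K) := Finite.of_equiv _ e1.symm.toEquiv
    exact ⟨(MulEquiv.ofBijective _ ((Nat.bijective_iff_injective_and_card _).2 ⟨hinj, h5⟩)).trans e1⟩

end Conj

theorem toGL_bij (n : ℕ) : Function.Bijective (Matrix.SpecialLinearGroup.toGL :
    Matrix.SpecialLinearGroup (Fin n) (ZMod 2) →* GL (Fin n) (ZMod 2)) := by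
  constructor
  · intro a b hab
    apply Subtype.ext
    exact congrArg (fun g : GL (Fin n) (ZMod 2) => (g : Matrix (Fin n) (Fin n) (ZMod 2))) hab
  · intro g
    have hd : (g : Matrix (Fin n) (Fin n) (ZMod 2)).det = 1 := by
      have := congrArg Units.val (unit_two (Matrix.GeneralLinearGroup.det g))
      exact this
    exact ⟨⟨g, hd⟩, Units.ext rfl⟩

/-- the order of the automorphism group of `GL_5(2)` -/
theorem card_aut_GL5 : Nat.card (MulAut (GL (Fin 5) (ZMod 2))) = 2 * Nat.card (GL (Fin 5) (ZMod 2)) := by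
  have : Fact (Nat.Prime 2) := ⟨Nat.prime_two⟩
  obtain ⟨e⟩ := equiv_psl 5
  have h := Cfsg.Agent.S0813.result (F := ZMod 2) 2 1 le_rfl (by rw [ZMod.card, pow_one]) 5 (by norm_num) (by norm_num)
  rw [if_neg (by norm_num)] at h
  have h1 := toGL_bij 5
  have h2 : Nat.card (Matrix.SpecialLinearGroup (Fin 5) (ZMod 2)) = Nat.card (GL (Fin 5) (ZMod 2)) :=
    Nat.card_congr (Equiv.ofBijective _ h1)
  have h3 : Nat.card (MulAut (GL (Fin 5) (ZMod 2))) =
      Nat.card (MulAut (Matrix.ProjectiveSpecialLinearGroup (Fin 5) (ZMod 2))) :=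
    Nat.card_congr (MulAut.congr e).toEquiv
  rw [h3, h, mul_one, ← h2]
  exact congrArg (fun m => 2 * m) (Cfsg.Agent.S0265.result 5)

/-- **END for `GL_5(2)`** -/
theorem end_L5 {G : Type*} [Group G] [Finite G] (K : Subgroup G) [K.Normal] (hC : centralizer (K : Set G) = ⊥)
    (e : K ≃* GL (Fin 5) (ZMod 2)) :
    Nonempty (G ≃* GL (Fin 5) (ZMod 2)) ∨ Nonempty (G ≃* MulAut (GL (Fin 5) (ZMod 2))) :=
  eq_bot_or_of_card K e hC card_aut_GL5

/-- **END for `M24`** -/
theorem end_M24 {G : Type*} [Group G] [Finite G] (K : Subgroup G) [K.Normal] (hC : centralizer (K : Set G) = ⊥)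
    (hK : Cfsg.Spor.IsoM24 K) : Cfsg.Spor.IsoM24 G := by
  obtain ⟨e⟩ := hK
  have hinj := conjNormal_injective K hC
  have htop : K = ⊤ := by
    rw [eq_top_iff]
    intro g _
    obtain ⟨k, hk⟩ := Cfsg.Agent.KFacts.M24Two.Out.exists_conj (MulAut.congr e (MulAut.conjNormal g))
    have h1 : (MulAut.conjNormal g : MulAut K) = MulAut.conjNormal ((e.symm k : K) : G) := by
      rw [conjNormal_mem]
      apply (MulAut.congr e).injective
      rw [hk]
      apply MulEquiv.ext
      intro x
      change k * x * k⁻¹ = e ((MulAut.conj (e.symm k)) (e.symm x))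
      rw [MulAut.conj_apply, map_mul, map_mul, map_inv, MulEquiv.apply_symm_apply, MulEquiv.apply_symm_apply]
    rw [hinj h1]
    exact (e.symm k).2
  subst htop
  exact ⟨topEquiv.symm.trans e⟩

open Alt in
/-- **END for the alternating groups** -/
theorem end_alt {G : Type*} [Group G] [Finite G] {th : V → G} {O K0 : Subgroup G} (h : Sit th O K0)
    (K : Subgroup G) [K.Normal] (hC : centralizer (K : Set G) = ⊥) (hK : ∀ v, th v ∈ K)
    (hS : Sit (fun v => (⟨th v, hK v⟩ : K)) (O.subgroupOf K) (K0.subgroupOf K)) {n : ℕ}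
    (e : K ≃* alternatingGroup (Fin n)) :
    (∃ n : ℕ, 16 ≤ n ∧ n ≤ 19 ∧ Nonempty (G ≃* alternatingGroup (Fin n))) ∨
      (∃ n : ℕ, (n = 16 ∨ n = 17) ∧ Nonempty (G ≃* Equiv.Perm (Fin n))) := by
  classical
  have hSe := hS.equiv e
  obtain ⟨h16, h19⟩ := row_alt hSe
  obtain ⟨ψ, hψ⟩ := Cfsg.Agent.StandardComponent.AltAut.exists_autHom n (by omega)
  have hinj := conjNormal_injective K hC
  let c : G →* MulAut (alternatingGroup (Fin n)) := (MulAut.congr e).toMonoidHom.comp MulAut.conjNormal
  have hc : ∀ (g : G) (x : alternatingGroup (Fin n)), c g x = e (MulAut.conjNormal g (e.symm x)) := fun g x => rfl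
  have hcinj : Function.Injective c := (MulAut.congr e).injective.comp hinj
  let j : G →* Equiv.Perm (Fin n) := ψ.comp c
  have hj : ∀ (g : G) (x : alternatingGroup (Fin n)), ((c g x : alternatingGroup (Fin n)) : Equiv.Perm (Fin n)) =
      j g * x * (j g)⁻¹ := fun g x => hψ _ _
  have hjinj : Function.Injective j := by
    rw [injective_iff_map_eq_one]
    intro g hg
    apply (injective_iff_map_eq_one c).1 hcinj
    apply MulEquiv.ext
    intro x
    apply Subtype.ext
    rw [hj, hg, one_mul, inv_one, mul_one]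
    rfl
  have huniq : ∀ {σ τ : Equiv.Perm (Fin n)},
      (∀ x : alternatingGroup (Fin n), σ * x * σ⁻¹ = τ * x * τ⁻¹) → σ = τ := by
    intro σ τ hστ
    obtain ⟨m, rfl⟩ : ∃ m, n = m + 2 := ⟨n - 2, by omega⟩
    exact Cfsg.Agent.StandardComponent.AltAut.conj_unique (m := m) (by omega) hστ
  have hjK : ∀ k : K, j (k : G) = (e k : alternatingGroup (Fin n)) := by
    intro k
    apply huniq
    intro x
    rw [← hj, hc, conjNormal_mem, MulAut.conj_apply, map_mul, map_mul, map_inv, MulEquiv.apply_symm_apply]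
    rfl
  have hle : alternatingGroup (Fin n) ≤ j.range := by
    intro x hx
    exact ⟨((e.symm ⟨x, hx⟩ : K) : G), by rw [hjK, MulEquiv.apply_symm_apply]⟩
  have eG : G ≃* j.range := MonoidHom.ofInjective hjinj
  by_cases hodd : ∃ g, sign (j g) = -1
  · right
    have htop : j.range = ⊤ := by
      obtain ⟨g, hg⟩ := hodd
      rw [eq_top_iff]
      intro s _
      rcases Int.units_eq_one_or (sign s) with hs | hs
      · exact hle (mem_alternatingGroup.2 hs)
      · have h1 : s * (j g)⁻¹ ∈ j.range := hle (mem_alternatingGroup.2 (by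
          rw [map_mul, map_inv, hs, hg]; decide))
        have h2 := j.range.mul_mem h1 ⟨g, rfl⟩
        rwa [inv_mul_cancel_right] at h2
    have hn : n ≤ 17 := by
      by_contra hn
      obtain ⟨x, F, hreg, hxF, hF, hfix⟩ := exists_fixed hSe
      have h2 : 2 ≤ F.card := by omega
      obtain ⟨T, hTF, hT⟩ := Finset.exists_subset_card_eq h2
      obtain ⟨a, b, hab, rfl⟩ := Finset.card_eq_two.1 hT
      have ha := hfix a (hTF (by simp))
      have hb := hfix b (hTF (by simp))
      have hP : ∀ v, j (th v) = P (fun v => e ⟨th v, hK v⟩) v := fun v => hjK ⟨th v, hK v⟩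
      obtain ⟨g, hg⟩ : ∃ g, j g = Equiv.swap a b := by
        have : Equiv.swap a b ∈ j.range := by rw [htop]; trivial
        exact this
      have hcomm : ∀ v, g * th v = th v * g := by
        intro v
        apply hjinj
        rw [map_mul, map_mul, hg, hP]
        ext1 w
        rw [mul_apply, mul_apply]
        by_cases h1 : w = a
        · rw [h1, ha, Equiv.swap_apply_left, hb]
        by_cases h3 : w = b
        · rw [h3, hb, Equiv.swap_apply_right, ha]
        rw [Equiv.swap_apply_of_ne_of_ne h1 h3, Equiv.swap_apply_of_ne_of_ne]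
        · intro h4
          exact h1 ((P (fun v => e ⟨th v, hK v⟩) v).injective (by rw [h4, ha]))
        · intro h4
          exact h3 ((P (fun v => e ⟨th v, hK v⟩) v).injective (by rw [h4, hb]))
      obtain ⟨w, hw⟩ := h.mem_of_mul_self (x := g) hcomm (hjinj (by
        rw [map_mul, hg, Equiv.swap_mul_self, map_one]))
      have hw2 : P (fun v => e ⟨th v, hK v⟩) w = Equiv.swap a b := by rw [← hP, hw, hg]
      have hxa : x ≠ a := fun hh => hxF (hTF (by rw [hh]; simp))
      have hxb : x ≠ b := fun hh => hxF (hTF (by rw [hh]; simp))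
      have hx : P (fun v => e ⟨th v, hK v⟩) w x = x := by
        rw [hw2, Equiv.swap_apply_of_ne_of_ne hxa hxb]
      have hw0 := hreg w hx
      rw [hw0, P_zero hSe] at hw2
      have h5 := congrArg (fun s : Equiv.Perm (Fin n) => s a) hw2
      simp only [one_apply, Equiv.swap_apply_left] at h5
      exact hab h5
    refine ⟨n, by omega, ⟨eG.trans ((MulEquiv.subgroupCongr htop).trans topEquiv)⟩⟩
  · left
    have heq : j.range = alternatingGroup (Fin n) := by
      apply le_antisymm _ hle
      rintro _ ⟨g, rfl⟩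
      rw [mem_alternatingGroup]
      rcases Int.units_eq_one_or (sign (j g)) with hs | hs
      · exact hs
      · exact absurd ⟨g, hs⟩ hodd
    exact ⟨n, h16, h19, ⟨eG.trans (MulEquiv.subgroupCongr heq)⟩⟩

end Cfsg.Agent.H512.LinFour
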