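import Cfsg.Agent.H512.LinFour.End
import Cfsg.Agent.H336.LinFour.Quot
import Cfsg.Agent.H336.LinFour.FromE
import Cfsg.Agent.Lib.Cores

/-!
# S1918 from the row theorem
-/

set_option autoImplicit false

namespace Cfsg.Agent.H512.LinFour

open Cfsg.Agent.H336.LinFour Subgroup

universe u

/-- the normal case -/
theorem normal_case {G : Type*} [Group G] [Finite G] {th : V → G} {O K0 : Subgroup G} (h : Sit th O K0)
    (hO : Cfsg.oddCore G = ⊥) (hN : h.A.Normal) :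
    ∃ (E' K' : Subgroup G), E'.Normal ∧ Cfsg.IsElementaryAbelian 2 E' ∧ Nat.card E' = 16 ∧
        centralizer (E' : Set G) = E' ∧ E' ⊓ K' = ⊥ ∧ E' ⊔ K' = ⊤ ∧ Nonempty (K' ≃* GL (Fin 4) (ZMod 2)) := by
  have hall : ∀ n : G, ∀ v, ∃ u, n * th v * n⁻¹ = th u := by
    intro n v
    obtain ⟨u, hu⟩ := hN.conj_mem _ (h.th_mem v) n
    exact ⟨u, hu.symm⟩
  have hOn : O.Normal := ⟨fun x hx n => h.oN x hx n (hall n)⟩
  have hO1 : O = ⊥ := by
    rw [eq_bot_iff, ← hO]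
    exact Cfsg.Agent.Lib.Cores.le_pPrimeCore hOn (Nat.coprime_two_right.2 h.odd)
  have hcen : ∀ x : G, (∀ v, x * th v = th v * x) → x ∈ h.A := by
    intro x hx
    obtain ⟨o, ho, v, rfl⟩ := h.cent x hx
    rw [hO1, mem_bot] at ho
    rw [ho, one_mul]
    exact h.th_mem v
  have hnt : ∀ n : G, n ∈ normalizer (h.A : Set G) := fun n => h.mem_normalizer.2 (hall n)
  let r : K0 →* S := h.rep.comp (inclusion h.K0_le)
  have hr : Function.Bijective r := by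
    constructor
    · rw [injective_iff_map_eq_one]
      intro k hk
      have h1 := (h.rep_eq_one ⟨(k : G), h.K0_le k.2⟩).1 hk
      have h2 := h.k0c k k.2 h1
      rw [hO1, mem_bot] at h2
      exact Subtype.ext h2
    · intro s
      obtain ⟨k, hk, hk'⟩ := h.rep_surj s
      exact ⟨⟨k, hk⟩, hk'⟩
  refine ⟨h.A, K0, hN, ⟨⟨⟨?_⟩⟩, ?_⟩, h.card_A, ?_, ?_, ?_, ⟨MulEquiv.ofBijective r hr⟩⟩
  · rintro ⟨_, u, rfl⟩ ⟨_, v, rfl⟩
    exact Subtype.ext (h.comm u v)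
  · rintro _ ⟨v, rfl⟩
    rw [pow_two, h.sq]
  · apply le_antisymm
    · intro x hx
      exact hcen x fun v => (mem_centralizer_iff.1 hx _ (h.th_mem v)).symm
    · rintro _ ⟨u, rfl⟩
      rw [mem_centralizer_iff]
      rintro _ ⟨v, rfl⟩
      exact h.comm v u
  · rw [eq_bot_iff]
    rintro _ ⟨⟨u, rfl⟩, hu⟩
    have h1 := h.k0c _ hu fun v => h.comm u v
    rwa [hO1] at h1
  · rw [eq_top_iff]
    intro n _
    obtain ⟨k, hk, hk'⟩ := h.rep_surj (h.rep ⟨n, hnt n⟩)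
    have h1 : h.rep (⟨n, hnt n⟩ * ⟨k, h.K0_le hk⟩⁻¹) = 1 := by
      rw [map_mul, map_inv, hk', mul_inv_cancel]
    have h2 : n * k⁻¹ ∈ h.A := hcen _ ((h.rep_eq_one _).1 h1)
    have h3 : n = (n * k⁻¹) * k := by rw [inv_mul_cancel_right]
    rw [h3]
    exact mul_mem (mem_sup_left h2) (mem_sup_right hk)

/-- the conclusion of the row theorem -/
def Row (K : Type u) [Group K] : Prop :=
  Nonempty (K ≃* GL (Fin 5) (ZMod 2)) ∨ Cfsg.Spor.IsoM24 K ∨ ∃ n, Nonempty (K ≃* alternatingGroup (Fin n))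

/-- the conclusion of S1918 -/
def Concl (G : Type u) [Group G] : Prop :=
  (∃ (E' K' : Subgroup G), E'.Normal ∧ Cfsg.IsElementaryAbelian 2 E' ∧ Nat.card E' = 16 ∧
        centralizer (E' : Set G) = E' ∧ E' ⊓ K' = ⊥ ∧ E' ⊔ K' = ⊤ ∧ Nonempty (K' ≃* GL (Fin 4) (ZMod 2))) ∨
      Nonempty (G ≃* GL (Fin 5) (ZMod 2)) ∨
      Nonempty (G ≃* MulAut (GL (Fin 5) (ZMod 2))) ∨
      Cfsg.Spor.IsoM24 G ∨
      (∃ n : ℕ, 16 ≤ n ∧ n ≤ 19 ∧ Nonempty (G ≃* alternatingGroup (Fin n))) ∨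
      (∃ n : ℕ, (n = 16 ∨ n = 17) ∧ Nonempty (G ≃* Equiv.Perm (Fin n)))

/-- **the group with trivial odd core** -/
theorem concl_of_sit {G : Type u} [Group G] [Finite G] {th : V → G} {O K0 : Subgroup G} (h : Sit th O K0)
    (hO : Cfsg.oddCore G = ⊥)
    (row : ∀ (K : Type u) [Group K] [Finite K] [IsSimpleGroup K] (th : V → K) (O K0 : Subgroup K),
      ¬ IsMulCommutative K → Sit th O K0 → Row K) : Concl G := by
  rcases h.reduce hO with hN | ⟨K, hKn, hKs, hKna, hC, hK, hS⟩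
  · exact Or.inl (normal_case h hO hN)
  · rcases row K _ _ _ hKna hS with ⟨⟨e⟩⟩ | h24 | ⟨n, ⟨e⟩⟩
    · rcases end_L5 K hC e with h1 | h1
      · exact Or.inr (Or.inl h1)
      · exact Or.inr (Or.inr (Or.inl h1))
    · exact Or.inr (Or.inr (Or.inr (Or.inl (end_M24 K hC h24))))
    · exact Or.inr (Or.inr (Or.inr (Or.inr (end_alt h K hC hK hS e))))

/-- **S1918 from the row theorem** -/
theorem main {G : Type u} [Group G] [Finite G] (A : Subgroup G) (hA : Cfsg.IsElementaryAbelian 2 A)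
    (hA16 : Nat.card A = 16)
    (hN : ∃ (E K : Subgroup (↥(Subgroup.normalizer (A : Set G)) ⧸ Cfsg.oddCore ↥(Subgroup.normalizer (A : Set G)))),
      E.Normal ∧ Cfsg.IsElementaryAbelian 2 E ∧ Nat.card E = 16 ∧
      Subgroup.centralizer (E : Set (↥(Subgroup.normalizer (A : Set G)) ⧸ Cfsg.oddCore ↥(Subgroup.normalizer (A : Set G)))) = E ∧
      E ⊓ K = ⊥ ∧ E ⊔ K = ⊤ ∧ Nonempty (K ≃* GL (Fin 4) (ZMod 2)))
    (row : ∀ (K : Type u) [Group K] [Finite K] [IsSimpleGroup K] (th : V → K) (O K0 : Subgroup K),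
      ¬ IsMulCommutative K → Sit th O K0 → Row K) : Concl (G ⧸ Cfsg.oddCore G) := by
  obtain ⟨th, O, K0, h, -⟩ := exists_sit A hA hA16 hN
  have hodd : Odd (Nat.card (Cfsg.oddCore G)) :=
    Nat.coprime_two_right.1 (Cfsg.Agent.Lib.Cores.pPrimeCore_coprime (G := G) 2)
  have hn : (Cfsg.oddCore G).Normal := Cfsg.Agent.Lib.Cores.pPrimeCore_normal 2
  exact concl_of_sit (h.quot (Cfsg.oddCore G) hodd) (Cfsg.Agent.Lib.Cores.pPrimeCore_quotient_pPrimeCore 2) row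

end Cfsg.Agent.H512.LinFour
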