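import Cfsg.Agent.H336.LinFour.Basic
import Cfsg.Agent.H336.LinFour.Equiv
import Cfsg.Agent.H815.RankG2
import Cfsg.Prelude.Def_LieTypeChar

/-!
# The exceptional groups of type `G₂`, `³D₄`, `²G₂` over fields of odd order (rows of S1918)
-/

set_option autoImplicit false

namespace Cfsg.Agent.H512.LinFour

open Cfsg.Agent.H336.LinFour Subgroup Cfsg.Lie Cfsg.Agent.ClassificationK.GTwoModel

/-- the model 2-group has no elementary abelian subgroup of order 16 -/
theorem false_of_T {l : ℕ} [NeZero l] (f : V → T (2 * l)) (hf : ∀ u v, f (u + v) = f u * f v)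
    (hinj : Function.Injective f) : False := by
  classical
  have hf0 : f 0 = 1 := by
    have := hf 0 0
    rw [add_zero] at this
    exact left_eq_mul.mp this
  have hcomm : ∀ u v, f u * f v = f v * f u := fun u v => by rw [← hf, ← hf, add_comm]
  have hsq : ∀ u, f u * f u = 1 := fun u => by rw [← hf, v_add_self, hf0]
  -- the kernel part
  let W : Finset V := Finset.univ.filter fun v => (f v).e = false ∧ (f v).d = false
  have hWmem : ∀ v, v ∈ W ↔ (f v).e = false ∧ (f v).d = false := fun v => by simp [W]
  have hW : ∀ v ∈ W, ((f v).i = 0 ∨ (f v).i = (l : ZMod (2 * l))) ∧ ((f v).j = 0 ∨ (f v).j = (l : ZMod (2 * l))) := by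
    intro v hv
    obtain ⟨h1, h2⟩ := (hWmem v).1 hv
    have h3 := hsq v
    rcases hfv : f v with ⟨i, j, e, d⟩
    rw [hfv] at h1 h2 h3
    have h1' : e = false := h1
    have h2' : d = false := h2
    subst h1' h2'
    rw [T.mul_mk, T.one_def] at h3
    simp only [sg_false, cond_false, one_mul, T.mk.injEq] at h3
    exact ⟨two_half l i h3.1, two_half l j h3.2.1⟩
  have hadd : ∀ u v, (f u).e = (f v).e → (f u).d = (f v).d → u + v ∈ W := by
    intro u v h1 h2
    rw [hWmem, hf]
    rcases hfu : f u with ⟨i, j, e, d⟩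
    rcases hfv : f v with ⟨i', j', e', d'⟩
    rw [hfu, hfv] at h1 h2
    have h1' : e = e' := h1
    have h2' : d = d' := h2
    subst h1' h2'
    rw [T.mul_mk]
    exact ⟨Bool.xor_self e, Bool.xor_self d⟩
  by_cases hd : ∃ b, (f b).d = true
  · obtain ⟨b, hb⟩ := hd
    -- `i = j` on `W`
    have hij : ∀ v ∈ W, (f v).j = (f v).i := by
      intro v hv
      obtain ⟨h1, h2⟩ := (hWmem v).1 hv
      have h5 := (hW v hv).1
      have h3 := hcomm b v
      have h4 := hsq v
      rcases hfv : f v with ⟨i, j, e, d⟩
      rcases hfb : f b with ⟨i', j', e', d'⟩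
      rw [hfv] at h1 h2 h3 h4 h5
      rw [hfb] at hb h3
      have h1' : e = false := h1
      have h2' : d = false := h2
      have hb' : d' = true := hb
      subst h1' h2' hb'
      rw [T.mul_mk, T.mul_mk] at h3
      rw [T.mul_mk, T.one_def] at h4
      simp only [sg_false, cond_false, cond_true, one_mul, T.mk.injEq, Bool.xor_false, Bool.xor_true, Bool.false_xor,
        Bool.not_false, and_true] at h3 h4
      change j = i
      cases e'
      · rw [sg_false, one_mul, add_comm] at h3
        exact add_right_cancel h3.1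
      · rw [sg_true] at h3
        have h6 : -1 * j = i := by
          have := h3.1
          rw [add_comm] at this
          exact add_right_cancel this
        have h7 : j = -j := eq_neg_of_add_eq_zero_left h4.2
        rw [← h6, neg_one_mul, ← h7]
    have h16 : (Finset.univ : Finset (Bool × Bool)).card * 3 < (Finset.univ : Finset V).card := by simp [V]
    obtain ⟨⟨e, d⟩, -, hed⟩ := Finset.exists_lt_card_fiber_of_mul_lt_card_of_maps_to
      (t := (Finset.univ : Finset (Bool × Bool))) (f := fun v => ((f v).e, (f v).d)) (fun v _ => Finset.mem_univ _)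
      (n := 3) h16
    obtain ⟨v0, hv0⟩ := Finset.card_pos.1 (by omega : 0 < (Finset.univ.filter fun v => ((f v).e, (f v).d) = (e, d)).card)
    have h1 : (Finset.univ.filter fun v => ((f v).e, (f v).d) = (e, d)).card ≤ W.card := by
      apply Finset.card_le_card_of_injOn (fun v => v0 + v)
      · intro v hv
        simp only [Finset.coe_filter, Finset.mem_univ, true_and, Set.mem_ofPred_eq, Prod.mk.injEq,
          Finset.mem_filter] at hv hv0
        exact hadd v0 v (hv0.1.trans hv.1.symm) (hv0.2.trans hv.2.symm)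
      · intro a _ b _ hab
        exact add_left_cancel hab
    have h2 : W.card ≤ ({0, (l : ZMod (2 * l))} : Finset (ZMod (2 * l))).card := by
      apply Finset.card_le_card_of_injOn (fun v => (f v).i)
      · intro v hv
        have := (hW v hv).1
        simpa using this
      · intro a ha b hb hab
        have hab' : (f a).i = (f b).i := hab
        apply hinj
        have e1 := (hWmem a).1 ha
        have e2 := (hWmem b).1 hb
        have e3 := hij a ha
        have e4 := hij b hb
        apply T.ext
        · exact hab'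
        · rw [e3, e4, hab']
        · rw [e1.1, e2.1]
        · rw [e1.2, e2.2]
    have h3 : ({0, (l : ZMod (2 * l))} : Finset (ZMod (2 * l))).card ≤ 2 := Finset.card_le_two
    omega
  · push Not at hd
    have hd' : ∀ b, (f b).d = false := fun b => by simpa using hd b
    have h16 : (Finset.univ : Finset Bool).card * 7 < (Finset.univ : Finset V).card := by simp [V]
    obtain ⟨e, -, hed⟩ := Finset.exists_lt_card_fiber_of_mul_lt_card_of_maps_to
      (t := (Finset.univ : Finset Bool)) (f := fun v => (f v).e) (fun v _ => Finset.mem_univ _)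
      (n := 7) h16
    obtain ⟨v0, hv0⟩ := Finset.card_pos.1 (by omega : 0 < (Finset.univ.filter fun v => (f v).e = e).card)
    have h1 : (Finset.univ.filter fun v => (f v).e = e).card ≤ W.card := by
      apply Finset.card_le_card_of_injOn (fun v => v0 + v)
      · intro v hv
        simp only [Finset.coe_filter, Finset.mem_univ, true_and, Set.mem_ofPred_eq,
          Finset.mem_filter] at hv hv0
        exact hadd v0 v (hv0.trans hv.symm) ((hd' _).trans (hd' _).symm)
      · intro a _ b _ hab
        exact add_left_cancel hab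
    have h2 : W.card ≤ (({0, (l : ZMod (2 * l))} : Finset (ZMod (2 * l))) ×ˢ
        ({0, (l : ZMod (2 * l))} : Finset (ZMod (2 * l)))).card := by
      apply Finset.card_le_card_of_injOn (fun v => ((f v).i, (f v).j))
      · intro v hv
        have := hW v hv
        simpa using this
      · intro a ha b hb hab
        have hab' : (f a).i = (f b).i := (Prod.ext_iff.1 hab).1
        have hab'' : (f a).j = (f b).j := (Prod.ext_iff.1 hab).2
        apply hinj
        have e1 := (hWmem a).1 ha
        have e2 := (hWmem b).1 hb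
        apply T.ext
        · exact hab'
        · exact hab''
        · rw [e1.1, e2.1]
        · rw [e1.2, e2.2]
    rw [Finset.card_product] at h2
    have h3 : ({0, (l : ZMod (2 * l))} : Finset (ZMod (2 * l))).card ≤ 2 := Finset.card_le_two
    have h4 := Nat.mul_le_mul h3 h3
    omega

variable {K : Type*} [Group K] {th : V → K} {O K0 : Subgroup K}

theorem false_of_sylow [Finite K] (h : Sit th O K0)
    (hP : ∀ P : Sylow 2 K, ∃ l : ℕ, l ≠ 0 ∧ Nonempty (T (2 * l) ≃* (P : Subgroup K))) : False := by
  have : Fact (Nat.Prime 2) := ⟨Nat.prime_two⟩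
  obtain ⟨P, hAP⟩ := h.isPGroup_A.exists_le_sylow
  obtain ⟨l, hl, ⟨e⟩⟩ := hP P
  have : NeZero l := ⟨hl⟩
  refine false_of_T (l := l) (fun v => e.symm ⟨th v, hAP (h.th_mem v)⟩) (fun u v => ?_) ?_
  · rw [← map_mul]
    congr 1
    exact Subtype.ext (h.add u v)
  · intro u v huv
    exact h.inj (congrArg Subtype.val (e.symm.injective huv))

theorem row_G2 [Finite K] (h : Sit th O K0) {F : Type*} [Field F] [Fintype F] (h2 : Odd (Fintype.card F))
    (e : K ≃* chevG2.group F) : False := by
  have he := h.equiv e
  refine false_of_sylow he fun P => ?_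
  obtain ⟨k, -, hk⟩ := ClassificationK.GTwoSylow.exists_equiv h2 (S1059.result rfl) P
  exact ⟨2 ^ k, by positivity, hk⟩

theorem row_3D4 [Finite K] (h : Sit th O K0) {F : Type*} [Field F] [Fintype F] {q : ℕ} (hq : Odd q)
    (hF : Fintype.card F = q ^ 3) (e : K ≃* twistedD4 F q) : False := by
  have he := h.equiv e
  refine false_of_sylow he fun P => ?_
  obtain ⟨k, m, -, -, -, hk⟩ := H285.D4Sylow.exists_equiv hq hF P
  exact ⟨2 ^ k, by positivity, hk⟩

theorem row_Ree [Finite K] (h : Sit th O K0) (hR : IsoRee K) : False := by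
  obtain ⟨F, i1, i2, m, -, hF, ⟨e⟩⟩ := hR
  have h1 : 20160 * 16 ∣ Nat.card K := h.card_dvd
  rw [Nat.card_congr e.toEquiv, ChevalleyStructure.ReeCount.card_twistedG2 hF] at h1
  set q := 3 ^ (2 * m + 1) with hq
  have h8 : q % 8 = 3 := by
    rw [hq, pow_succ, pow_mul, Nat.mul_mod, Nat.pow_mod]
    norm_num
  have h3 : (q ^ 3) % 8 = 3 := by
    rw [Nat.pow_mod, h8]
  obtain ⟨a, ha⟩ : ∃ a, q - 1 = 2 * (4 * a + 1) := ⟨q / 8, by omega⟩
  obtain ⟨b, hb⟩ : ∃ b, q ^ 3 + 1 = 4 * (2 * b + 1) := ⟨q ^ 3 / 8, by omega⟩
  rw [ha, hb] at h1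
  have hodd : Odd (q ^ 3 * (4 * a + 1) * (2 * b + 1)) := by
    refine ((Nat.odd_iff.2 (by omega)).mul (Nat.odd_iff.2 (by omega))).mul (Nat.odd_iff.2 (by omega))
  have h4 : 8 * 2 ∣ q ^ 3 * (2 * (4 * a + 1)) * (4 * (2 * b + 1)) := (by norm_num : 8 * 2 ∣ 20160 * 16).trans h1
  rw [show q ^ 3 * (2 * (4 * a + 1)) * (4 * (2 * b + 1)) = 8 * (q ^ 3 * (4 * a + 1) * (2 * b + 1)) by ring] at h4
  have h5 := Nat.dvd_of_mul_dvd_mul_left (by norm_num) h4
  exact (Nat.not_even_iff_odd.2 hodd) (even_iff_two_dvd.2 h5)

end Cfsg.Agent.H512.LinFour
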